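import Cfsg.Agent.PCore.AxB
import Cfsg.Agent.CoprimeAction.Abelian
import Cfsg.Agent.CoprimeAction.Hyperplane
import Cfsg.Agent.ThreeTrans.PairSymThree
import Cfsg.Agent.ZJ.Involves
import Cfsg.Prelude.Def_Transfer

/-!
Elementary abelian 2-groups acting on a faithful module without a section S₃.
-/

set_option autoImplicit false
set_option linter.style.haveILetI false

namespace CfsgLib.SmallOffender

open scoped commutatorElement

universe u

variable {X : Type u} [Group X] [Finite X]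

theorem card_dvd_three_of_fixing {U : Subgroup X} {y : X} (hU : Nat.card U ≤ 4) (hy : Odd (orderOf y))
    (hyU : Subgroup.zpowers y ≤ Subgroup.normalizer (U : Set X)) :
    y ^ 3 ∈ Subgroup.centralizer (U : Set X) := by
  classical
  let f : Equiv.Perm U :=
    { toFun := fun u => ⟨y * u * y⁻¹, CoprimeAction.conj_mem hyU (Subgroup.mem_zpowers y) u.2⟩
      invFun := fun u => ⟨y⁻¹ * u * y⁻¹⁻¹, CoprimeAction.conj_mem hyU (inv_mem (Subgroup.mem_zpowers y)) u.2⟩
      left_inv := fun u => Subtype.ext (by simp [mul_assoc])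
      right_inv := fun u => Subtype.ext (by simp [mul_assoc]) }
  have hf : ∀ (n : ℕ) (u : U), (((f ^ n) u : U) : X) = y ^ n * u * (y ^ n)⁻¹ := by
    intro n u
    induction n with
    | zero => simp
    | succ n ih =>
      rw [pow_succ', Equiv.Perm.mul_apply]
      show y * ((f ^ n) u : X) * y⁻¹ = _
      rw [ih, pow_succ', mul_inv_rev]
      simp only [mul_assoc]
  have h1 : orderOf f ∣ orderOf y := orderOf_dvd_of_pow_eq_one <| Equiv.ext fun u => Subtype.ext <| by
    rw [hf, pow_orderOf_eq_one]; simp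
  have h2 : orderOf f ∣ 8 * 3 := by
    refine (orderOf_dvd_natCard f).trans ?_
    rw [Nat.card_perm]
    exact (Nat.factorial_dvd_factorial hU).trans (by decide)
  have h3 : (orderOf f).Coprime 8 := by
    rw [show (8 : ℕ) = 2 ^ 3 by norm_num]
    exact ((Nat.coprime_two_right.2 (hy.of_dvd_nat h1))).pow_right 3
  have h4 := orderOf_dvd_iff_pow_eq_one.1 (h3.dvd_of_dvd_mul_left h2)
  refine Subgroup.mem_centralizer_iff.2 fun u hu => ?_
  have h5 := hf 3 ⟨u, hu⟩
  rw [h4] at h5
  have h6 : u = y ^ 3 * u * (y ^ 3)⁻¹ := h5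
  exact eq_mul_inv_iff_mul_eq.1 h6

theorem card_mul_relIndex' {H K : Subgroup X} (h : H ≤ K) : Nat.card H * H.relIndex K = Nat.card K := by
  rw [← Subgroup.relIndex_bot_left, ← Subgroup.relIndex_bot_left, Subgroup.relIndex_mul_relIndex _ _ _ bot_le h]

theorem isMulCommutative_of_le {A B : Subgroup X} (hA : IsMulCommutative A) (h : B ≤ A) : IsMulCommutative B :=
  ⟨⟨fun x y => Subtype.ext
    (congrArg (fun z : A => (z : X)) (mul_comm' (⟨(x : X), h x.2⟩ : A) ⟨(y : X), h y.2⟩))⟩⟩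

theorem sq_card_le {M V : Subgroup X} (hV : Cfsg.IsElementaryAbelian 2 V)
    (hMV : M ≤ Subgroup.normalizer (V : Set X)) (hfaith : M ⊓ Subgroup.centralizer (V : Set X) = ⊥)
    {O : Subgroup X} (hOM : O ≤ M) (hMO : M ≤ Subgroup.normalizer (O : Set X)) (hodd : Odd (Nat.card O))
    (hcon : M ⊓ Subgroup.centralizer (O : Set X) ≤ O)
    (hS3 : ¬ Cfsg.Involves (Equiv.Perm (Fin 3)) ↥M) (A : Subgroup X) (hAM : A ≤ M)
    (hA : Cfsg.IsElementaryAbelian 2 A) :
    Nat.card A ^ 2 ≤ (V ⊓ Subgroup.centralizer (A : Set X)).relIndex V := by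
  classical
  haveI : Fact (Nat.Prime 2) := ⟨Nat.prime_two⟩
  induction hn : Nat.card A using Nat.strong_induction_on generalizing A with
  | _ n ih =>
  subst hn
  by_cases hA1 : A = ⊥
  · subst hA1
    rw [Subgroup.card_bot, one_pow]
    exact Nat.pos_of_ne_zero (by rw [Subgroup.relIndex]; exact Subgroup.index_ne_zero_of_finite)
  haveI := hA.1
  haveI := hV.1
  have hA2 : IsPGroup 2 A := fun x => ⟨1, Subtype.ext (by simpa using hA.2 x x.2)⟩
  have hV2 : IsPGroup 2 V := fun x => ⟨1, Subtype.ext (by simpa using hV.2 x x.2)⟩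
  have hcopA : (Nat.card A).Coprime (Nat.card O) := by
    obtain ⟨i, hi⟩ := IsPGroup.iff_card.1 hA2
    rw [hi]
    exact (Nat.coprime_two_left.2 hodd).pow_left i
  obtain ⟨B, hBA, hBi, hBc⟩ : ∃ B ≤ A, B.relIndex A = 2 ∧
      ¬ O ⊓ Subgroup.centralizer (B : Set X) ≤ Subgroup.centralizer (A : Set X) := by
    by_contra hcon'
    simp only [not_exists, not_and, not_not] at hcon'
    have h1 := CfsgLib.CoprimeAction.le_of_hyperplane_centralizers_le hA1 hA.2 (hAM.trans hMO) hcopA hcon'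
    have h2 : A ≤ O := fun a ha => hcon ⟨hAM ha, Subgroup.le_centralizer_iff.1 h1 ha⟩
    exact hA1 ((inf_of_le_left h2).symm.trans (Subgroup.inf_eq_bot_of_coprime hcopA))
  obtain ⟨a, ha, haB⟩ : ∃ a ∈ A, a ∉ B := by
    by_contra hcon'
    simp only [not_exists, not_and, not_not] at hcon'
    rw [Subgroup.relIndex_eq_one.2 hcon'] at hBi
    exact absurd hBi (by norm_num)
  have hgen : A = B ⊔ Subgroup.zpowers a := by
    refine (Subgroup.eq_of_le_of_card_ge (sup_le hBA (Subgroup.zpowers_le.2 ha)) (le_of_eq ?_)).symm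
    rw [← card_mul_relIndex' le_sup_left, CoprimeAction.relIndex_sup_zpowers hBA ha (hA.2 a ha) haB,
      ← hBi, card_mul_relIndex' hBA]
  have hBcard : Nat.card B * 2 = Nat.card A := by rw [← hBi, card_mul_relIndex' hBA]
  set W := V ⊓ Subgroup.centralizer (B : Set X) with hW
  have hind : Nat.card B ^ 2 ≤ W.relIndex V :=
    ih _ (by have : 0 < Nat.card B := Nat.card_pos; omega) B (hBA.trans hAM)
      ⟨isMulCommutative_of_le hA.1 hBA, fun x hx => hA.2 x (hBA hx)⟩ rfl
  set Z := V ⊓ Subgroup.centralizer (A : Set X) with hZ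
  have hZW : Z ≤ W := inf_le_inf_left _ (Subgroup.centralizer_le hBA)
  rw [← Subgroup.relIndex_mul_relIndex Z W V hZW inf_le_left, ← hBcard, mul_pow, mul_comm (Nat.card B ^ 2)]
  refine Nat.mul_le_mul ?_ hind
  by_contra hlt
  replace hlt : Z.relIndex W ≤ 3 := by omega
  -- an element inverted by `a`
  obtain ⟨g, ⟨hgO, hgB⟩, hga⟩ : ∃ g ∈ O ⊓ Subgroup.centralizer (B : Set X), a * g ≠ g * a := by
    by_contra hcon'
    simp only [not_exists, not_and, not_not] at hcon'
    refine hBc fun g hg => Subgroup.mem_centralizer_iff.2 fun u hu => ?_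
    have h1 : A ≤ Subgroup.centralizer ({g} : Set X) := by
      rw [hgen]
      exact sup_le (fun b hb => Subgroup.mem_centralizer_singleton_iff.2 (Subgroup.mem_centralizer_iff.1 hg.2 b hb))
        (Subgroup.zpowers_le.2 (Subgroup.mem_centralizer_singleton_iff.2 (hcon' g hg)))
    exact Subgroup.mem_centralizer_singleton_iff.1 (h1 hu)
  have haa : a * a = 1 := by rw [← pow_two]; exact hA.2 a ha
  have hai : a⁻¹ = a := inv_eq_of_mul_eq_one_right haa
  set y := g * a * g⁻¹ * a with hy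
  have hyO : y ∈ O := by
    rw [hy, mul_assoc g, mul_assoc g]
    nth_rw 2 [← hai]
    exact O.mul_mem hgO (CoprimeAction.conj_mem (hAM.trans hMO) ha (O.inv_mem hgO))
  have hyB : ∀ b ∈ B, Commute b y := by
    intro b hb
    have hbg : Commute b g := Subgroup.mem_centralizer_iff.1 hgB b hb
    have hba : Commute b a := congrArg Subtype.val (mul_comm' (⟨b, hBA hb⟩ : A) ⟨a, ha⟩)
    exact ((hbg.mul_right hba).mul_right hbg.inv_right).mul_right hba
  have hy1 : y ≠ 1 := fun h => hga <| by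
    have h1 : g * a * g⁻¹ = a := by
      rw [← hai]; exact (mul_eq_one_iff_eq_inv.1 (by rw [hai]; exact h))
    exact (mul_inv_eq_iff_eq_mul.1 h1).symm
  have hinv : a * y * a⁻¹ = y⁻¹ := by
    rw [hy, hai]
    simp only [mul_inv_rev, inv_inv, hai, mul_assoc, haa, mul_one]
  have hyodd : Odd (orderOf y) := hodd.of_dvd_nat (Subgroup.orderOf_dvd_natCard O hyO)
  have hyM : y ∈ M := hOM hyO
  set Y := Subgroup.zpowers y with hY
  have hYc : (Nat.card Y).Coprime 2 := by rw [hY, Nat.card_zpowers]; exact Nat.coprime_two_right.2 hyodd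
  have hYV : Y ≤ Subgroup.normalizer (V : Set X) := Subgroup.zpowers_le.2 (hMV hyM)
  have hYW : Y ≤ Subgroup.normalizer (W : Set X) := by
    refine Subgroup.zpowers_le.2 (Subgroup.inf_normalizer_le_normalizer_inf ⟨hMV hyM, ?_⟩)
    refine Subgroup.mem_normalizer_fintype fun v hv => Subgroup.mem_centralizer_iff.2 fun b hb => ?_
    have hby := hyB b hb
    exact (hby.mul_right (Subgroup.mem_centralizer_iff.1 hv b hb)).mul_right hby.inv_right
  -- the kernel of `y` on `W` is trivial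
  have hfaithW : ∀ z ∈ Y, z ∈ Subgroup.centralizer (W : Set X) → z = 1 := by
    intro z hz hzW
    have h1 := PCore.thompson_AxB (A := B) (B := Subgroup.zpowers z) (K := V) (hA2.to_le hBA)
      (hYc.coprime_dvd_left (Subgroup.card_dvd_of_le (Subgroup.zpowers_le.2 hz))) hV2 ?_
      ((hBA.trans hAM).trans hMV) ((Subgroup.zpowers_le.2 hz).trans hYV) (Subgroup.zpowers_le.2 hzW)
    · refine Subgroup.mem_bot.1 (hfaith ▸ ⟨?_, h1 (Subgroup.mem_zpowers z)⟩)
      exact Subgroup.zpowers_le.2 hyM hz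
    · intro b hb u hu
      obtain ⟨i, rfl⟩ := Subgroup.mem_zpowers_iff.1 (Subgroup.zpowers_le.2 hz hu)
      exact (hyB b hb).zpow_right i
  -- `[W, y]` is small
  set Z' := Z ⊓ Z.map (MulAut.conj y).toMonoidHom with hZ'
  have hWy : W.map (MulAut.conj y).toMonoidHom = W :=
    Subgroup.mem_normalizer_iff_map_conj_eq.1 (hYW (Subgroup.mem_zpowers y))
  haveI hWc : IsMulCommutative W := isMulCommutative_of_le hV.1 inf_le_left
  have hYW2 : (Nat.card Y).Coprime (Nat.card W) := by
    obtain ⟨i, hi⟩ := IsPGroup.iff_card.1 (hV2.to_le (inf_le_left : W ≤ V))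
    rw [hi]
    exact hYc.pow_right i
  have hsmall : Nat.card ↥(⁅W, Y⁆ : Subgroup X) ≤ 4 := by
    have hZd : Z.relIndex W = 1 ∨ Z.relIndex W = 2 := by
      obtain ⟨i, hi⟩ := IsPGroup.iff_card.1 (hV2.to_le (inf_le_left : W ≤ V))
      obtain ⟨j, -, hj⟩ := (Nat.dvd_prime_pow Nat.prime_two).1 (hi ▸ Dvd.intro_left _ (card_mul_relIndex' hZW) : Z.relIndex W ∣ 2 ^ i)
      rcases j with _ | _ | j
      · left; simpa using hj
      · right; simpa using hj
      · rw [hj, pow_succ, pow_succ] at hlt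
        have := Nat.one_le_two_pow (n := j); omega
    have hcard : Nat.card W ≤ Nat.card Z' * 4 := by
      have h1 : Z'.relIndex W ≤ Z.relIndex W * (Z.map (MulAut.conj y).toMonoidHom).relIndex W :=
        Subgroup.relIndex_inf_le
      have h2 : (Z.map (MulAut.conj y).toMonoidHom).relIndex W = Z.relIndex W := by
        conv_lhs => rw [← hWy]
        exact Subgroup.relIndex_map_map_of_injective _ _ (MulAut.conj y).injective
      have h3 : Z'.relIndex W ≤ 4 := by rw [h2] at h1; rcases hZd with h | h <;> rw [h] at h1 <;> omega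
      rw [← card_mul_relIndex' (inf_le_left.trans hZW : Z' ≤ W)]
      exact Nat.mul_le_mul le_rfl h3
    have hfix : Z' ≤ W ⊓ Subgroup.centralizer (Y : Set X) := by
      rintro z ⟨hz, z₀, hz₀, hz₀z⟩
      refine ⟨hZW hz, ?_⟩
      have h1 : a * z = z * a := Subgroup.mem_centralizer_iff.1 hz.2 a ha
      have h0 : a * z₀ = z₀ * a := Subgroup.mem_centralizer_iff.1 hz₀.2 a ha
      have h2 : Commute (y * a * y⁻¹) z := by
        rw [← hz₀z]
        show y * a * y⁻¹ * (y * z₀ * y⁻¹) = y * z₀ * y⁻¹ * (y * a * y⁻¹)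
        simp only [mul_assoc, inv_mul_cancel_left]
        rw [← mul_assoc a, h0, mul_assoc z₀]
      have h3 : Commute (y ^ 2) z := by
        have h4 : y ^ 2 = (y * a * y⁻¹) * a := by
          have h5 : a * y⁻¹ * a⁻¹ = y := by rw [← inv_inj, conj_inv] at hinv; simpa using hinv
          rw [hai] at h5
          rw [pow_two]
          nth_rw 2 [← h5]
          simp only [mul_assoc]
        rw [h4]
        exact h2.mul_left h1
      obtain ⟨k, hk⟩ := hyodd
      have h6 : y = (y ^ 2) ^ (k + 1) := by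
        rw [← pow_mul, show 2 * (k + 1) = (2 * k + 1) + 1 by ring, pow_succ, ← hk, pow_orderOf_eq_one, one_mul]
      refine Subgroup.mem_centralizer_iff.2 fun u hu => ?_
      obtain ⟨i, rfl⟩ := Subgroup.mem_zpowers_iff.1 hu
      exact (h6 ▸ h3.pow_left (k + 1) : Commute y z).zpow_left i
    have hdisj := CoprimeAction.centralizer_inf_commutator_eq_bot hYW hYW2
    have hUW : ⁅W, Y⁆ ≤ W := CoprimeAction.commutator_le_of_normalizer hYW
    have h7 : Nat.card ↥(⁅W, Y⁆ : Subgroup X) * Nat.card Z' ≤ Nat.card W := by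
      have hd : Disjoint (⁅W, Y⁆ : Subgroup X) Z' :=
        disjoint_iff.2 (le_bot_iff.1 (le_trans (le_of_eq (inf_comm _ _)) ((inf_le_inf_right _ hfix).trans hdisj.le)))
      rw [← Nat.card_prod]
      exact Nat.card_le_card_of_injective
        (fun q : ↥(⁅W, Y⁆ : Subgroup X) × Z' => (⟨q.1 * q.2, W.mul_mem (hUW q.1.2) (hZW q.2.2.1)⟩ : W))
        fun q r h => Subgroup.mul_injective_of_disjoint hd (congrArg Subtype.val h)
    have h8 : 0 < Nat.card Z' := Nat.card_pos
    nlinarith [h7, hcard, h8]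
  have hUn : Y ≤ Subgroup.normalizer ((⁅W, Y⁆ : Subgroup X) : Set X) :=
    CoprimeAction.le_normalizer_commutator hYW
  have hc3 := card_dvd_three_of_fixing hsmall hyodd hUn
  have hy3 : y ^ 3 = 1 := by
    refine hfaithW _ (pow_mem (Subgroup.mem_zpowers y) 3) (Subgroup.mem_centralizer_iff.2 fun w hw => ?_)
    obtain ⟨u, hu, c, hc, rfl⟩ := CoprimeAction.exists_commutator_mul_centralizer hYW hYW2
      (Or.inl inferInstance) hw
    exact ((Commute.symm (Subgroup.mem_centralizer_iff.1 hc3 u hu : Commute u (y ^ 3))).mul_right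
      (Subgroup.mem_centralizer_iff.1 hc.2 (y ^ 3) (pow_mem (Subgroup.mem_zpowers y) 3))).symm
  refine hS3 ?_
  have hd : (⟨y * a, M.mul_mem hyM (hAM ha)⟩ : M) * ⟨y * a, M.mul_mem hyM (hAM ha)⟩ = 1 := Subtype.ext <| by
    show y * a * (y * a) = 1
    rw [← mul_assoc, mul_assoc y a, ← hai]
    nth_rw 1 [hai]
    rw [mul_assoc y, hinv, mul_inv_cancel]
  have he : (⟨a, hAM ha⟩ : M) * ⟨a, hAM ha⟩ = 1 := Subtype.ext haa
  obtain ⟨α⟩ := ThreeTrans.closure_pair_equiv_perm hd he (Subtype.ext (by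
      show (y * a * a) ^ 3 = 1
      rw [mul_assoc, haa, mul_one, hy3])) (fun h => hy1 <| by
    have h1 : y * a * a = a * (y * a) := congrArg Subtype.val h.eq
    rw [mul_assoc y a a, haa, mul_one, ← mul_assoc] at h1
    have h2 : y = y⁻¹ := by
      rw [hai] at hinv
      exact h1.trans hinv
    obtain ⟨k, hk⟩ := hyodd
    have h3 : y ^ 2 = 1 := by rw [pow_two]; nth_rw 2 [h2]; rw [mul_inv_cancel]
    have h4 := pow_orderOf_eq_one y
    rwa [hk, pow_succ, pow_mul, h3, one_pow, one_mul] at h4)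
  exact ZJ.involves_of_hom _ α.toMonoidHom α.surjective

theorem involves_symThree {M V A : Subgroup X} (hV : Cfsg.IsElementaryAbelian 2 V)
    (hMV : M ≤ Subgroup.normalizer (V : Set X)) (hfaith : M ⊓ Subgroup.centralizer (V : Set X) = ⊥)
    (hcon : Subgroup.centralizer (Cfsg.pPrimeCore 2 ↥M : Set ↥M) ≤ Cfsg.pPrimeCore 2 ↥M)
    (hAM : A ≤ M) (hA : Cfsg.IsElementaryAbelian 2 A)
    (hsmall : (V ⊓ Subgroup.centralizer (A : Set X)).relIndex V < Nat.card A ^ 2) :
    Cfsg.Involves (Equiv.Perm (Fin 3)) ↥M := by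
  by_contra hS3
  haveI : Fact (Nat.Prime 2) := ⟨Nat.prime_two⟩
  haveI : (Cfsg.pPrimeCore 2 ↥M).Normal := Cfsg.pPrimeCore_normal 2 ↥M
  refine absurd (sq_card_le hV hMV hfaith (O := (Cfsg.pPrimeCore 2 ↥M).map M.subtype)
    (Subgroup.map_subtype_le _) ?_ ?_ ?_ hS3 A hAM hA) (not_le.2 hsmall)
  · refine (le_of_eq ?_).trans (Subgroup.le_normalizer_map M.subtype)
    rw [Subgroup.normalizer_eq_top, ← MonoidHom.range_eq_map, Subgroup.range_subtype]
  · rw [Subgroup.card_map_of_injective M.subtype_injective]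
    exact Nat.coprime_two_right.1 (PCore.pPrimeCore_coprime 2 ↥M)
  · rintro g ⟨hgM, hg⟩
    exact ⟨⟨g, hgM⟩, hcon (Subgroup.mem_centralizer_iff.2 fun o ho => Subtype.ext
      (Subgroup.mem_centralizer_iff.1 hg _ ⟨o, ho, rfl⟩)), rfl⟩

end CfsgLib.SmallOffender
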